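import Mathlib
import Cfsg.Agent.TcData.SD5c.I16.Blocks

set_option autoImplicit false
set_option Elab.async false
set_option maxRecDepth 100000
set_option linter.all false

namespace Cfsg.Agent.TcData.SD5c.I16

open Cfsg.Spor Cfsg.Agent.Lib.TcFacts Cfsg.Agent.Lib.TcBits Cfsg.Agent.Lib.TcPres Cfsg.Agent.Lib.SchurDefs2.D5c Cfsg.Agent.TcData.SD5c

theorem hb : ∀ a, a ≤ 5 → base a = true →
    a < 5 ∧ PresentedGroup.mk RR (gL.getD a 1) ∈ HH := by
  intro a _ h
  have h2 : a ∈ baseL := by simpa [base] using h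
  simp only [baseL, List.mem_cons, List.not_mem_nil, or_false] at h2
  rcases h2 with rfl | rfl | rfl | rfl
  exacts [⟨by decide, mem_map_closure (s := FreeGroup.of Gen.c) (by simp)⟩,
      ⟨by decide, mem_map_closure (s := FreeGroup.of Gen.d) (by simp)⟩,
      ⟨by decide, mem_map_closure (s := FreeGroup.of Gen.e) (by simp)⟩,
      ⟨by decide, mem_map_closure (s := FreeGroup.of Gen.f) (by simp)⟩]

theorem hmac : ∀ s ∈ macros, PresentedGroup.mk RR s ∈ HH := by
  intro s hs
  simp [macros] at hs

theorem hRels : Rels = relL.map (fun r => encW enc r.toWord) ++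
    (macroRels enc 5 macros ++ pairsOf enc gensL) := by decide +kernel

theorem hw : ∀ k, k < 25 →
    rotOK Rels 5 (decW 3 7 (6 + 1) (wd k)) (hint k) = true := by
  decide +kernel

theorem h1alive : aliveB ent 5 32 1 = true := by decide +kernel

theorem index_le' : HH.index ≠ 0 ∧ HH.index ≤ 16 :=
  index_le HH gL macros relL gensL enc (hℓ macros) hL hrel hmac ent pa wd side base
    5 31 5 10 255 3 7 8 6 31 25 32 128 16 hlen
    (by norm_num) hb Rels hRels hint hw (by norm_num) c0 h1alive

end Cfsg.Agent.TcData.SD5c.I16
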